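import Cfsg.Agent.H335.RT.Lift
import Cfsg.Agent.Lib.Cores
import Cfsg.Agent.S0215

/-!
# The reduction of S3126 to simple groups (helper335)

`G` with trivial centre and odd core, generated by an `RT` class, is simple.
-/

set_option autoImplicit false

namespace Cfsg.Agent.H335.Red

open Subgroup Cfsg

variable {G : Type*} [Group G]

/-- a normal subgroup which misses `D` is centralised by `D` -/
theorem comm_of_disjoint [Finite G] (hO : Cfsg.oddCore G = ⊥) {D : Set G} (h : RT D) (N : Subgroup G) [hN : N.Normal]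
    (hd : ∀ y ∈ D, y ∉ N) {x : G} (hx : x ∈ D) {n : G} (hn : n ∈ N) : x * n = n * x := by
  have hp2 : Fact (Nat.Prime 2) := ⟨Nat.prime_two⟩
  set H : Subgroup G := N ⊔ zpowers x with hH
  have hxH : x ∈ H := mem_sup_right (mem_zpowers x)
  have hNH : N ≤ H := le_sup_left
  -- the elements of `D ∩ H` are in `N x`
  have hcos : ∀ y ∈ D, y ∈ H → y * x ∈ N := by
    intro y hy hyH
    have h1 : y ∈ ((N ⊔ zpowers x : Subgroup G) : Set G) := hyH
    rw [Subgroup.normal_mul, Set.mem_mul] at h1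
    obtain ⟨a, ha, b, hb, rfl⟩ := h1
    obtain ⟨k, rfl⟩ := mem_zpowers_iff.1 hb
    have hxx := h.sq hx
    rcases Int.even_or_odd' k with ⟨m, rfl | rfl⟩
    · exfalso
      have h2 : x ^ (2 * m) = 1 := by
        rw [zpow_mul, zpow_two, hxx, one_zpow]
      rw [h2, mul_one] at hy
      exact hd _ hy ha
    · have h2 : x ^ (2 * m + 1) = x := by
        rw [zpow_add, zpow_mul, zpow_two, hxx, one_zpow, one_mul, zpow_one]
      rw [h2, mul_assoc, hxx, mul_one]
      exact ha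
  have hsolo : ∀ y ∈ D, y ∈ H → ∀ y' ∈ D, y' ∈ H → Commute y y' → y = y' := by
    intro y hy hyH y' hy' hyH' hc
    by_contra hne
    have h1 := h.mul y hy y' hy' hne hc
    refine hd _ h1 ?_
    have h2 : y * y' = (y * x) * (y' * x)⁻¹ := by
      rw [mul_inv_rev, h.inv_eq hy', h.inv_eq hx]
      calc y * y' = y * (x * x) * y' := by rw [h.sq hx, mul_one]
        _ = _ := by group
    rw [h2]
    exact N.mul_mem (hcos y hy hyH) (N.inv_mem (hcos y' hy' hyH'))
  -- a Sylow subgroup containing `x`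
  have hDH := h.subgroup H
  have h2x : IsPGroup 2 ↥(zpowers (⟨x, hxH⟩ : ↥H)) := by
    rw [IsPGroup.iff_card]
    refine ⟨1, ?_⟩
    rw [Nat.card_zpowers, Subgroup.orderOf_mk, h.inv x hx, pow_one]
  obtain ⟨P, hP⟩ := h2x.exists_le_sylow
  have hxP : (⟨x, hxH⟩ : ↥H) ∈ (P : Subgroup ↥H) := hP (mem_zpowers _)
  obtain ⟨z, hzD, hzP, hz⟩ := hDH.exists_central P ⟨⟨x, hxH⟩, hx⟩
  have huniq : ∀ y : ↥H, (y : G) ∈ D → y ∈ (P : Subgroup ↥H) → y = z := by
    intro y hy hyP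
    exact Subtype.ext (hsolo y hy y.2 z hzD z.2 (congrArg Subtype.val (hz y hyP)))
  have hzx : (⟨x, hxH⟩ : ↥H) = z := huniq _ hx hxP
  obtain ⟨M, hM, hodd, hc⟩ := Cfsg.Agent.S0215.result P (⟨x, hxH⟩ : ↥H)
    (by rw [Subgroup.orderOf_mk]; exact h.inv x hx) hxP (fun g hg => by
      rw [huniq _ (h.conj x hx g) hg, hzx])
  -- `M ∩ N = 1`
  have h3 : (⟨x, hxH⟩ : ↥H) * ⟨n, hNH hn⟩ * (⟨x, hxH⟩ : ↥H)⁻¹ * (⟨n, hNH hn⟩ : ↥H)⁻¹ ∈ M := hc _
  have h4 : x * n * x⁻¹ * n⁻¹ ∈ N := N.mul_mem (hN.conj_mem n hn x) (N.inv_mem hn)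
  have hMN : ((M.map H.subtype).subgroupOf N).Normal := by
    constructor
    intro a ha b
    rw [mem_subgroupOf] at ha ⊢
    obtain ⟨a', ha', hae⟩ := ha
    refine ⟨⟨(b : G), hNH b.2⟩ * a' * (⟨(b : G), hNH b.2⟩ : ↥H)⁻¹, hM.conj_mem a' ha' _, ?_⟩
    change (b : G) * (a' : G) * (b : G)⁻¹ = (b : G) * a * (b : G)⁻¹
    rw [show (a' : G) = a from hae]
  have hcop : (Nat.card ↥((M.map H.subtype).subgroupOf N)).Coprime 2 := by
    rw [Nat.coprime_two_right]
    have h5 : Nat.card ↥((M.map H.subtype).subgroupOf N) ∣ Nat.card ↥M := by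
      have h6 : Nat.card ↥((M.map H.subtype).subgroupOf N) ∣ Nat.card ↥(M.map H.subtype) := by
        rw [← Subgroup.relIndex_bot_left, ← Subgroup.relIndex_bot_left]
        have h7 : Nat.card ↥((M.map H.subtype).subgroupOf N) = Nat.card ↥((M.map H.subtype) ⊓ N : Subgroup G) := by
          rw [← Subgroup.subgroupOf_map_subtype]
          exact Nat.card_congr (((M.map H.subtype).subgroupOf N).equivMapOfInjective _ N.subtype_injective).toEquiv
        rw [Subgroup.relIndex_bot_left, Subgroup.relIndex_bot_left, h7]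
        exact card_dvd_of_le inf_le_left
      rw [Nat.card_congr (M.equivMapOfInjective _ H.subtype_injective).toEquiv]
      exact h6
    exact Odd.of_dvd_nat hodd h5
  have h5 := Lib.Cores.le_pPrimeCore hMN hcop
  have h6 : (⟨x * n * x⁻¹ * n⁻¹, h4⟩ : ↥N) ∈ pPrimeCore 2 ↥N := h5 (by
    rw [mem_subgroupOf]
    exact ⟨_, h3, rfl⟩)
  have h7 : x * n * x⁻¹ * n⁻¹ ∈ N ⊓ pPrimeCore 2 G := by
    rw [← Lib.Cores.map_subtype_pPrimeCore 2 hN]
    exact ⟨_, h6, rfl⟩
  have h8 : x * n * x⁻¹ * n⁻¹ = 1 := by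
    have h9 : x * n * x⁻¹ * n⁻¹ ∈ Cfsg.oddCore G := h7.2
    rwa [hO, mem_bot] at h9
  rw [mul_inv_eq_one, mul_inv_eq_iff_eq_mul] at h8
  exact h8

/-- **The reduction.** -/
theorem isSimpleGroup [Finite G] (hZ : center G = ⊥) (hO : Cfsg.oddCore G = ⊥) {D : Set G} (h : RT D) {x₀ : G}
    (hx₀ : x₀ ∈ D) (hcls : ∀ y ∈ D, IsConj x₀ y) (hgen : closure D = ⊤) : IsSimpleGroup G := by
  have hnt : Nontrivial G := ⟨⟨x₀, 1, h.ne_one hx₀⟩⟩
  refine ⟨fun N hN => ?_⟩
  by_cases hd : ∀ y ∈ D, y ∉ N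
  · left
    rw [eq_bot_iff, ← hZ]
    intro n hn
    rw [mem_center_iff]
    intro g
    have h1 : closure D ≤ centralizer {n} := by
      rw [closure_le]
      intro y hy
      rw [SetLike.mem_coe, mem_centralizer_singleton_iff]
      exact comm_of_disjoint hO h N hd hy hn
    rw [hgen] at h1
    exact mem_centralizer_singleton_iff.1 (h1 (mem_top g))
  · right
    push Not at hd
    obtain ⟨y, hy, hyN⟩ := hd
    rw [eq_top_iff, ← hgen, closure_le]
    intro w hw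
    obtain ⟨g, hg⟩ := isConj_iff.1 ((hcls y hy).symm.trans (hcls w hw))
    rw [← hg]
    exact hN.conj_mem y hyN g

end Cfsg.Agent.H335.Red
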